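import Cfsg.Agent.Lib.PGrp.SameOrder
import Cfsg.Agent.Lib.Char.Burnside
import Cfsg.Agent.Lib.Core.MinNormal

/-! Groups with at most three same-order class sizes are solvable. -/

set_option autoImplicit false

namespace Cfsg.Agent.PGrp

open Subgroup

variable {G : Type*} [Group G] [Finite G]

theorem mem_image_sN {m : ℕ} (h : sN G m ≠ 0) :
    sN G m ∈ (fun m : ℕ => Nat.card {g : G // orderOf g = m}) '' Set.range (orderOf : G → ℕ) :=
  ⟨m, sN_ne_zero_iff.mp h, rfl⟩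

theorem exists_vals_of_ncard_eq_three
    (h : ((fun m : ℕ => Nat.card {g : G // orderOf g = m}) '' Set.range (orderOf : G → ℕ)).ncard
      = 3) : ∃ a b, ∀ m, sN G m = 0 ∨ sN G m = 1 ∨ sN G m = a ∨ sN G m = b := by
  obtain ⟨x, y, z, -, -, -, e⟩ := Set.ncard_eq_three.mp h
  have h1 := mem_image_sN (G := G) (m := 1) (by rw [sN_one]; exact one_ne_zero)
  have h2 : ∀ m, sN G m = 0 ∨ sN G m = x ∨ sN G m = y ∨ sN G m = z := fun m => by
    by_cases h0 : sN G m = 0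
    · exact Or.inl h0
    · have := mem_image_sN h0
      rw [e] at this
      exact Or.inr this
  rw [e, sN_one] at h1
  rcases h1 with rfl | rfl | rfl
  · exact ⟨y, z, h2⟩
  · exact ⟨x, z, fun m => by have := h2 m; tauto⟩
  · exact ⟨x, y, fun m => by have := h2 m; tauto⟩

theorem twoVal_of_vals {a b : ℕ} (h : ∀ m, sN G m = 0 ∨ sN G m = 1 ∨ sN G m = a ∨ sN G m = b) :
    TwoVal G a b := fun m hm => by
  have h1 := even_sN (G := G) hm
  rcases h m with e | e | e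
  · exact Or.inl e
  · rw [e] at h1; exact absurd h1 (by decide)
  · exact Or.inr e

theorem twoVal_of_odd {a b : ℕ} (h : TwoVal G a b) (ha : Odd a) : TwoVal G b b := fun m hm => by
  have h1 := even_sN (G := G) hm
  rcases h m hm with e | e | e
  · exact Or.inl e
  · rw [e] at h1; exact absurd h1 (Nat.not_even_iff_odd.mpr ha)
  · exact Or.inr (Or.inl e)

theorem odd_sN_two (h : 2 ∣ Nat.card G) : Odd (sN G 2) := by
  rw [← Nat.not_even_iff_odd, even_iff_two_dvd]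
  exact not_dvd_sN Nat.prime_two h

theorem solvable_of_unique_odd_prime
    (h : ∀ p q : ℕ, p.Prime → q.Prime → p ≠ 2 → q ≠ 2 → p ∣ Nat.card G → q ∣ Nat.card G → p = q) :
    Group.IsSolvable G := by
  by_cases hp : ∃ p : ℕ, p.Prime ∧ p ≠ 2 ∧ p ∣ Nat.card G
  · obtain ⟨p, hp, hp2, hpd⟩ := hp
    refine Char.solvable_of_two_primes Nat.prime_two hp fun r hr hrd => ?_
    by_cases h2 : r = 2
    · exact Or.inl h2
    · exact Or.inr (h r p hr hp h2 hp2 hrd hpd)
  · refine Char.solvable_of_two_primes Nat.prime_two Nat.prime_two fun r hr hrd => ?_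
    by_contra h2
    exact hp ⟨r, hr, fun e => h2 (Or.inl e), hrd⟩

theorem exists_central_involution (h : sN G 2 = 1) :
    ∃ z : G, orderOf z = 2 ∧ z ∈ center G ∧ ∀ w : G, orderOf w = 2 → w = z := by
  obtain ⟨z, hz⟩ := Nat.card_eq_one_iff_exists.mp h
  have h1 : ∀ w : G, orderOf w = 2 → w = z := fun w hw => congrArg Subtype.val (hz ⟨w, hw⟩)
  refine ⟨z, z.2, Subgroup.mem_center_iff.mpr fun g => ?_, h1⟩
  have := h1 (g * z * g⁻¹) ((SemiconjBy.orderOf_eq g (x := z) (y := g * z * g⁻¹)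
    (by simp [SemiconjBy])).symm.trans z.2)
  exact mul_inv_eq_iff_eq_mul.mp this

namespace TwoVal

variable {a b p q : ℕ}

theorem not_same_four (h : TwoVal G a b) (h2 : sN G 2 = 1) (h4 : 4 ∣ Nat.card G) (hp : p.Prime)
    (hq : q.Prime) (hp2 : p ≠ 2) (hq2 : q ≠ 2) (hpq : p ≠ q) (hpd : p ∣ Nat.card G)
    (ha : sN G p = a) (ha' : sN G q = a) : False := by
  have hqd : q ∣ Nat.card G := dvd_card_of_sN_ne_zero (ha' ▸ ha ▸ sN_prime_ne_zero hp hpd)
  have h0 : a ≠ 0 := ha ▸ sN_prime_ne_zero hp hpd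
  have h5 := four_dvd_sN h4
  rw [h2] at h5
  have hs4 : sN G 4 = a ∨ sN G 4 = b := (h 4 (by norm_num)).resolve_left (by omega)
  have nd4 : ∀ {r : ℕ}, r.Prime → r ≠ 2 → ¬ r ∣ 4 := fun hr hr2 e =>
    prime_not_dvd_two hr hr2 (hr.dvd_of_dvd_pow (n := 2) e)
  have key : ∀ {p q : ℕ}, p.Prime → q.Prime → p ≠ 2 → q ≠ 2 → p ≠ q → p ∣ Nat.card G →
      sN G p = a → sN G q = a → sN G (4 * p) = b ∧ sN G 4 = a := by
    intro p q hp hq hp2 hq2 hpq hpd ha ha'
    obtain ⟨-, -, e2, e3⟩ := h.same hp hq hp2 hq2 hpq hpd ha ha'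
    have e4 := two_mul_le_sN hp (G := G) (m := 4) (by rcases hs4 with e | e <;> rwa [e])
      (nd4 hp hp2) (by norm_num)
    have e5 := dvd_sN_add_sN hp hpd (nd4 hp hp2)
    have e6 : sN G (4 * p) = b := by
      rcases h (4 * p) (by have := hp.pos; omega) with e | e | e <;> omega
    refine ⟨e6, hs4.resolve_right fun e => e3 ?_⟩
    rw [e, e6] at e5
    exact prime_dvd_of_dvd_add_self hp hp2 e5
  obtain ⟨-, k1⟩ := key hp hq hp2 hq2 hpq hpd ha ha'
  obtain ⟨k2, -⟩ := key hq hp hq2 hp2 hpq.symm hqd ha' ha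
  obtain ⟨-, -, -, e3⟩ := h.same hp hq hp2 hq2 hpq hpd ha ha'
  have hnd : ¬ p ∣ 4 * q := fun e => ((Nat.Prime.dvd_mul hp).mp e).elim (nd4 hp hp2)
    fun e => hpq ((Nat.prime_dvd_prime_iff_eq hp hq).mp e)
  have e4 := two_mul_le_sN hp (G := G) (m := 4 * q) (k2 ▸ e3) hnd (by have := hq.pos; omega)
  have e5 := dvd_sN_add_sN hp hpd hnd
  have e6 : sN G (4 * q * p) = b := by
    rcases h (4 * q * p) (by have := hq.pos; have := hp.pos; nlinarith) with e | e | e <;> omega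
  rw [k2, e6] at e5
  exact e3 (prime_dvd_of_dvd_add_self hp hp2 e5)

theorem not_diff_four (h : TwoVal G a b) (h4 : sN G 4 = a) (hp : p.Prime) (hp2 : p ≠ 2)
    (hpd : p ∣ Nat.card G) (ha : sN G p = a) (hb : p ∣ b) : False := by
  have h0 : a ≠ 0 := ha ▸ sN_prime_ne_zero hp hpd
  have nd4 : ¬ p ∣ 4 := fun e => prime_not_dvd_two hp hp2 (hp.dvd_of_dvd_pow (n := 2) e)
  have e2 : ¬ p ∣ a := ha ▸ not_dvd_sN hp hpd
  have e4 := two_mul_le_sN hp (G := G) (m := 4) (h4 ▸ e2) nd4 (by norm_num)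
  have e5 := dvd_sN_add_sN hp hpd nd4
  have e6 : sN G (4 * p) = b := by
    rcases h (4 * p) (by have := hp.pos; omega) with e | e | e <;> omega
  rw [h4, e6] at e5
  exact e2 ((Nat.dvd_add_left hb).mp e5)

/-- If `4 ∤ |G|` there are at most two odd prime divisors. -/
theorem eq_or_eq (h : TwoVal G a b) (h4 : ¬ 4 ∣ Nat.card G) (hp : p.Prime) (hq : q.Prime)
    (hp2 : p ≠ 2) (hq2 : q ≠ 2) (hpq : p ≠ q) (hpd : p ∣ Nat.card G) (hqd : q ∣ Nat.card G)
    {r : ℕ} (hr : r.Prime) (hr2 : r ≠ 2) (hrd : r ∣ Nat.card G) : r = p ∨ r = q := by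
  by_contra hne
  push Not at hne
  rcases h.prime hp hp2 hpd with e1 | e1 <;> rcases h.prime hq hq2 hqd with e2 | e2 <;>
    rcases h.prime hr hr2 hrd with e3 | e3
  · exact h.not_same h4 hp hq hp2 hq2 hpq hpd e1 e2
  · exact h.not_same h4 hp hq hp2 hq2 hpq hpd e1 e2
  · exact h.not_same h4 hr hp hr2 hp2 hne.1 hrd e3 e1
  · exact h.symm.not_same h4 hr hq hr2 hq2 hne.2 hrd e3 e2
  · exact h.not_same h4 hr hq hr2 hq2 hne.2 hrd e3 e2
  · exact h.symm.not_same h4 hr hp hr2 hp2 hne.1 hrd e3 e1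
  · exact h.symm.not_same h4 hp hq hp2 hq2 hpq hpd e1 e2
  · exact h.symm.not_same h4 hp hq hp2 hq2 hpq hpd e1 e2

theorem unique_odd_of_four (h : TwoVal G a b) (h2 : sN G 2 = 1) (h4 : 4 ∣ Nat.card G)
    (hp : p.Prime) (hq : q.Prime) (hp2 : p ≠ 2) (hq2 : q ≠ 2) (hpd : p ∣ Nat.card G)
    (hqd : q ∣ Nat.card G) : p = q := by
  by_contra hpq
  have h5 := four_dvd_sN h4
  rw [h2] at h5
  have hs4 : sN G 4 = a ∨ sN G 4 = b := (h 4 (by norm_num)).resolve_left (by omega)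
  rcases h.prime hp hp2 hpd with e1 | e1 <;> rcases h.prime hq hq2 hqd with e2 | e2
  · exact h.not_same_four h2 h4 hp hq hp2 hq2 hpq hpd e1 e2
  · obtain ⟨-, k1, k2⟩ := h.diff hp hq hp2 hq2 hpq hpd hqd e1 e2
    rcases hs4 with e | e
    · exact h.not_diff_four e hp hp2 hpd e1 k1
    · exact h.symm.not_diff_four e hq hq2 hqd e2 k2
  · obtain ⟨-, k1, k2⟩ := h.symm.diff hp hq hp2 hq2 hpq hpd hqd e1 e2
    rcases hs4 with e | e
    · exact h.not_diff_four e hq hq2 hqd e2 k2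
    · exact h.symm.not_diff_four e hp hp2 hpd e1 k1
  · exact h.symm.not_same_four h2 h4 hp hq hp2 hq2 hpq hpd e1 e2

end TwoVal

theorem solvable_of_vals {a b : ℕ}
    (h : ∀ m, sN G m = 0 ∨ sN G m = 1 ∨ sN G m = a ∨ sN G m = b) : Group.IsSolvable G := by
  have hT := twoVal_of_vals h
  by_contra hs
  have hodd : ∃ p q : ℕ, p.Prime ∧ q.Prime ∧ p ≠ 2 ∧ q ≠ 2 ∧ p ∣ Nat.card G ∧ q ∣ Nat.card G ∧
      p ≠ q := by
    by_contra hc
    refine hs (solvable_of_unique_odd_prime fun p q h1 h2 h3 h4 h5 h6 => ?_)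
    by_contra h7
    exact hc ⟨p, q, h1, h2, h3, h4, h5, h6, h7⟩
  obtain ⟨p, q, hp, hq, hp2, hq2, hpd, hqd, hpq⟩ := hodd
  by_cases h2 : 2 ∣ Nat.card G
  · have ho := odd_sN_two h2
    rcases h 2 with e | e | e | e
    · rw [e] at ho; exact absurd ho (by decide)
    · by_cases h4 : 4 ∣ Nat.card G
      · exact hpq (hT.unique_odd_of_four e h4 hp hq hp2 hq2 hpd hqd)
      · obtain ⟨z, hz, hzc, -⟩ := exists_central_involution e
        haveI : (zpowers z).Normal := Core.normal_of_le_center (zpowers_le.mpr hzc)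
        have hc := Subgroup.card_eq_card_quotient_mul_card_subgroup (zpowers z)
        rw [Nat.card_zpowers, hz] at hc
        haveI : Group.IsSolvable (G ⧸ zpowers z) := by
          refine Char.solvable_of_two_primes hp hq fun r hr hrd => ?_
          refine hT.eq_or_eq h4 hp hq hp2 hq2 hpq hpd hqd hr ?_ (hc ▸ hrd.mul_right 2)
          rintro rfl
          exact h4 (hc ▸ Nat.mul_dvd_mul_right hrd 2)
        exact hs (Group.isSolvable_of_ker_le_range (zpowers z).subtype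
          (QuotientGroup.mk' (zpowers z)) (by simp))
    · exact (twoVal_of_odd hT (e ▸ ho)).not_self hp hq hp2 hq2 hpq hpd hqd
    · exact (twoVal_of_odd hT.symm (e ▸ ho)).not_self hp hq hp2 hq2 hpq hpd hqd
  · refine hs (Char.solvable_of_two_primes hp hq fun r hr hrd => ?_)
    refine hT.eq_or_eq (fun e => h2 (Dvd.dvd.trans (by norm_num) e)) hp hq hp2 hq2 hpq hpd hqd hr
      ?_ hrd
    rintro rfl
    exact h2 hrd

end Cfsg.Agent.PGrp
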